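import Mathlib
import Cfsg.Prelude.Def_FusionSystem
import Cfsg.Agent.Lib.Helper27.SubgroupFusion
import Cfsg.Agent.Lib.Helper27.NormalSub
import Cfsg.Agent.Lib.Helper27.ConstrNormal
import Cfsg.Agent.S5118

set_option autoImplicit false

namespace Cfsg.Agent.Lib.Helper27

open Cfsg Cfsg.FusionSystem Cfsg.Agent.Lib.Helper26

/-- Transport of constrainedness along an injective homomorphism `ι : G' →* G`: if the system of
`ι(G')` on `T` (inside `G`) is constrained, so is the system of `G'` on the preimage of `T`. -/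
theorem isConstrained_comap {G G' : Type*} [Group G] [Group G'] [Finite G'] (p : ℕ)
    [Fact p.Prime] (ι : G' →* G) (hι : Function.Injective ι) (H₀ T : Subgroup G) (hTH : T ≤ H₀)
    (hH₀ : ∀ x, x ∈ H₀ ↔ x ∈ ι.range) (T' : Subgroup G') (hT' : ∀ y, y ∈ T' ↔ ι y ∈ T)
    (hsyl : Nat.card T' = p ^ (Nat.card G').factorization p)
    (hc : (fusionSystemOfSubgroup H₀ T hTH).IsConstrained p) :
    (groupFusionSystem T').IsConstrained p := by
  obtain ⟨-, V, hVn, hVc⟩ := hc
  have hVT : V ≤ T := hVn.1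
  have hsat : (groupFusionSystem T').IsSaturated p := groupFS_saturated (Sylow.ofCard T' hsyl)
  have hQ'T' : V.comap ι ≤ T' := fun y hy => (hT' y).2 (hVT hy)
  have hVι : ∀ v ∈ V, ∃ q : G', ι q = v ∧ q ∈ V.comap ι := by
    intro v hv
    obtain ⟨q, rfl⟩ := (hH₀ v).1 (hTH (hVT hv))
    exact ⟨q, rfl, hv⟩
  refine ⟨hsat, V.comap ι, ⟨hQ'T', ?_⟩, ⟨hQ'T', ?_⟩⟩
  · -- normal
    rintro P' φ' ⟨hP', hφ'T, h, hh⟩
    have hP : P'.map ι ≤ T := by
      rintro _ ⟨x, hx, rfl⟩
      exact (hT' x).1 (hP' hx)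
    have hφ : conjHom (P'.map ι) (ι h) ∈ (fusionSystemOfSubgroup H₀ T hTH).Hom (P'.map ι) := by
      refine ⟨hP, ?_, ι h, (hH₀ _).2 ⟨h, rfl⟩, fun y => rfl⟩
      rintro ⟨_, x, hx, rfl⟩
      show ι h * ι x * (ι h)⁻¹ ∈ T
      have h1 := (hT' _).1 (hφ'T ⟨x, hx⟩)
      rw [hh] at h1
      simpa [map_mul, map_inv] using h1
    obtain ⟨ψ, ⟨hPV, hψT, k, hkH, hk⟩, hext, hmap⟩ := hVn.2 (P'.map ι) _ hφ
    obtain ⟨k', rfl⟩ := (hH₀ k).1 hkH
    have hsup : ∀ x ∈ P' ⊔ V.comap ι, ι x ∈ P'.map ι ⊔ V := by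
      intro x hx
      have h1 : ι x ∈ (P' ⊔ V.comap ι).map ι := Subgroup.mem_map_of_mem ι hx
      rw [Subgroup.map_sup] at h1
      exact (sup_le_sup_left (Subgroup.map_comap_le ι V) _) h1
    refine ⟨conjHom (P' ⊔ V.comap ι) k', ⟨sup_le hP' hQ'T', fun x => ?_, k', fun x => rfl⟩,
      fun x => ?_, ?_⟩
    · apply (hT' _).2
      have h1 := hψT ⟨ι x, hsup x x.2⟩
      rw [hk] at h1
      show ι (k' * x * k'⁻¹) ∈ T
      simpa [map_mul, map_inv] using h1
    · apply hι
      rw [hh x]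
      have h1 := hext ⟨ι x, Subgroup.mem_map_of_mem ι x.2⟩
      rw [hk] at h1
      show ι (k' * x * k'⁻¹) = ι (h * x * h⁻¹)
      rw [map_mul, map_mul, map_inv, map_mul, map_mul, map_inv]
      exact h1
    · ext y
      constructor
      · rintro ⟨q, hq, rfl⟩
        have hq' : ι q ∈ V := Subgroup.mem_subgroupOf.mp hq
        have h1 : ψ ⟨ι q, hsup q q.2⟩ ∈ V :=
          hmap.le ⟨⟨ι q, hsup q q.2⟩, Subgroup.mem_subgroupOf.mpr hq', rfl⟩
        rw [hk] at h1
        show ι (k' * q * k'⁻¹) ∈ V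
        simpa [map_mul, map_inv] using h1
      · intro hy
        have hy' : ι y ∈ V := hy
        obtain ⟨v, hv, hvy⟩ := hmap.ge hy'
        obtain ⟨q, hq, hqV⟩ := hVι v (Subgroup.mem_subgroupOf.mp hv)
        refine ⟨⟨q, Subgroup.mem_sup_right hqV⟩, Subgroup.mem_subgroupOf.mpr hqV, ?_⟩
        apply hι
        show ι (k' * q * k'⁻¹) = ι y
        rw [← hvy, hk, map_mul, map_mul, map_inv, hq]
  · -- centric
    rintro Q'' ⟨φ', ⟨-, hφ'T, h, hh⟩, hr⟩
    have hφ : conjHom V (ι h) ∈ (fusionSystemOfSubgroup H₀ T hTH).Hom V := by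
      refine ⟨hVT, ?_, ι h, (hH₀ _).2 ⟨h, rfl⟩, fun y => rfl⟩
      intro v
      obtain ⟨q, hq, hqV⟩ := hVι v v.2
      show ι h * (v : G) * (ι h)⁻¹ ∈ T
      have h1 := (hT' _).1 (hφ'T ⟨q, hqV⟩)
      rw [hh] at h1
      rw [← hq]
      simpa [map_mul, map_inv] using h1
    have hrange : (conjHom V (ι h)).range = Q''.map ι := by
      ext z
      constructor
      · rintro ⟨v, rfl⟩
        obtain ⟨q, hq, hqV⟩ := hVι v v.2
        refine ⟨φ' ⟨q, hqV⟩, ?_, ?_⟩
        · rw [← hr]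
          exact ⟨_, rfl⟩
        · rw [hh]
          show ι (h * q * h⁻¹) = ι h * (v : G) * (ι h)⁻¹
          rw [map_mul, map_mul, map_inv, hq]
      · rintro ⟨y, hy, rfl⟩
        rw [← hr] at hy
        obtain ⟨q, rfl⟩ := hy
        refine ⟨⟨ι q, q.2⟩, ?_⟩
        rw [hh]
        show ι h * ι q * (ι h)⁻¹ = ι (h * q * h⁻¹)
        rw [map_mul, map_mul, map_inv]
    have hcen := hVc.2 _ ⟨_, hφ, hrange⟩
    rintro c ⟨hcT', hcC⟩
    have h1 : ι c ∈ centralizerIn T (Q''.map ι) := by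
      refine ⟨(hT' c).1 hcT', ?_⟩
      show ι c ∈ Subgroup.centralizer ((Q''.map ι : Subgroup G) : Set G)
      rw [Subgroup.mem_centralizer_iff]
      rintro _ ⟨y, hy, rfl⟩
      have h2 := Subgroup.mem_centralizer_iff.1 hcC y hy
      rw [← map_mul, ← map_mul, h2]
    obtain ⟨y, hy, hyc⟩ := hcen h1
    rw [← hι hyc]
    exact hy

theorem card_subgroupOf_eq_inf {G : Type*} [Group G] (A K : Subgroup G) :
    Nat.card (A.subgroupOf K) = Nat.card ↥(A ⊓ K) := by
  rw [← Subgroup.inf_subgroupOf_right]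
  exact Nat.card_congr (Subgroup.subgroupOfEquivOfLe inf_le_right).toEquiv

/-- For a subnormal subgroup `H` of a finite group `G` with Sylow `p`-subgroup `S` whose fusion
system is constrained: `S ∩ H` is a Sylow `p`-subgroup of `H` and the fusion system of `H` on it
is constrained. -/
theorem subnormal_constrained {G : Type*} [Group G] [Finite G] (p : ℕ) [Fact p.Prime]
    (S : Sylow p G) (hF : (groupFusionSystem (S : Subgroup G)).IsConstrained p)
    {H : Subgroup G} (hH : H.IsSubnormal) :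
    Nat.card ↥((S : Subgroup G) ⊓ H) = p ^ (Nat.card H).factorization p ∧
      (groupFusionSystem ((S : Subgroup G).subgroupOf H)).IsConstrained p := by
  induction hH with
  | top =>
    have hcard : Nat.card ↥((S : Subgroup G) ⊓ ⊤) =
        p ^ (Nat.card (⊤ : Subgroup G)).factorization p := by
      rw [inf_top_eq, Subgroup.card_top]
      exact S.card_eq_multiplicity
    refine ⟨hcard, ?_⟩
    refine isConstrained_comap p (⊤ : Subgroup G).subtype Subtype.val_injective ⊤
      (S : Subgroup G) le_top ?_ _ ?_ ?_ ?_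
    · intro x
      simp
    · intro y
      exact Subgroup.mem_subgroupOf
    · rw [card_subgroupOf_eq_inf]
      exact hcard
    · rw [← groupFS_eq_subgroupFS]
      exact hF
  | step H K hHK hK hN ih =>
    obtain ⟨hcK, hconK⟩ := ih
    have hcK' : Nat.card ((S : Subgroup G).subgroupOf K) = p ^ (Nat.card K).factorization p := by
      rw [card_subgroupOf_eq_inf]
      exact hcK
    obtain ⟨SK, hSK⟩ : ∃ SK : Sylow p K, (SK : Subgroup K) = (S : Subgroup G).subgroupOf K :=
      ⟨Sylow.ofCard _ hcK', rfl⟩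
    have := hN
    have hnorm := Cfsg.Agent.S5118.result p SK (H.subgroupOf K)
    have hconK' : (groupFusionSystem (SK : Subgroup K)).IsConstrained p := by
      rw [hSK]
      exact hconK
    have hE := isConstrained_of_isNormalIn p SK.2 (groupFusionSystem (SK : Subgroup K)) hconK' _
      hnorm
    have h1 := card_sylow_inf_normal SK (H.subgroupOf K)
    have hcH : Nat.card ↥((S : Subgroup G) ⊓ H) = p ^ (Nat.card H).factorization p := by
      have e1 : Nat.card (H.subgroupOf K) = Nat.card H :=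
        Nat.card_congr (Subgroup.subgroupOfEquivOfLe hHK).toEquiv
      have e2 : (SK : Subgroup K) ⊓ H.subgroupOf K = ((S : Subgroup G) ⊓ H).subgroupOf K := by
        rw [hSK]
        ext x
        simp [Subgroup.mem_subgroupOf]
      have e3 : Nat.card ↥(((S : Subgroup G) ⊓ H).subgroupOf K) = Nat.card ↥((S : Subgroup G) ⊓ H) :=
        Nat.card_congr (Subgroup.subgroupOfEquivOfLe (inf_le_right.trans hHK)).toEquiv
      rw [e2, e3, e1] at h1
      exact h1
    refine ⟨hcH, ?_⟩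
    refine isConstrained_comap p (Subgroup.inclusion hHK) (Subgroup.inclusion_injective hHK)
      (H.subgroupOf K) ((SK : Subgroup K) ⊓ H.subgroupOf K) inf_le_right ?_ _ ?_ ?_ hE
    · intro x
      constructor
      · intro hx
        exact ⟨⟨(x : G), Subgroup.mem_subgroupOf.mp hx⟩, Subtype.ext rfl⟩
      · rintro ⟨y, rfl⟩
        exact Subgroup.mem_subgroupOf.mpr y.2
    · intro y
      rw [hSK]
      constructor
      · intro hy
        exact ⟨Subgroup.mem_subgroupOf.mpr (Subgroup.mem_subgroupOf.mp hy),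
          Subgroup.mem_subgroupOf.mpr y.2⟩
      · rintro ⟨h2, -⟩
        exact Subgroup.mem_subgroupOf.mpr (Subgroup.mem_subgroupOf.mp h2)
    · rw [card_subgroupOf_eq_inf]
      exact hcH

end Cfsg.Agent.Lib.Helper27
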