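import Mathlib
import Cfsg.Prelude.Def_FusionSystem
import Cfsg.Agent.Lib.Helper27.SubgroupFusion
import Cfsg.Agent.Lib.Helper27.NormalSub
import Cfsg.Agent.Lib.Helper27.ConstrNormal
import Cfsg.Agent.Lib.Helper27.SubnormalFS

set_option autoImplicit false

namespace Cfsg.Agent.Lib.Helper27

open Cfsg Cfsg.FusionSystem Cfsg.Agent.Lib.Helper26

/-- A `p`-element whose image modulo the centre lies in the image of a Sylow `p`-subgroup `T`
lies in `T`. -/
theorem mem_sylow_of_map_mem {L M : Type*} [Group L] [Group M] {p : ℕ} [Fact p.Prime]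
    (π : L →* M) (hker : π.ker = Subgroup.center L) (T : Sylow p L)
    {y : L} {k : ℕ} (hy : y ^ p ^ k = 1) (h : π y ∈ (T : Subgroup L).map π) :
    y ∈ (T : Subgroup L) := by
  obtain ⟨t, ht, hty⟩ := h
  have hz : t⁻¹ * y ∈ Subgroup.center L := by
    rw [← hker, MonoidHom.mem_ker, map_mul, map_inv, hty, inv_mul_cancel]
  obtain ⟨a, ha⟩ := T.2 ⟨t, ht⟩
  have ha' : t ^ p ^ a = 1 := by
    have := congrArg Subtype.val ha
    rwa [Subgroup.coe_pow] at this
  have hcomm : Commute t⁻¹ y := by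
    have h1 := Subgroup.mem_center_iff.1 hz t⁻¹
    have h2 : t⁻¹ * (y * t⁻¹) = t⁻¹ * (t⁻¹ * y) := by
      rw [← mul_assoc]
      exact h1.symm
    exact (mul_left_cancel h2).symm
  have hzpow : (t⁻¹ * y) ^ p ^ (a + k) = 1 := by
    rw [hcomm.mul_pow, pow_add, pow_mul, inv_pow, ha', pow_mul', hy]
    simp
  have hN : (Subgroup.zpowers (t⁻¹ * y)).Normal := by
    refine ⟨fun n hn g => ?_⟩
    have hc : n ∈ Subgroup.center L := (Subgroup.zpowers_le.2 hz) hn
    have h1 := Subgroup.mem_center_iff.1 hc g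
    rw [h1, mul_inv_cancel_right]
    exact hn
  have hP : IsPGroup p (Subgroup.zpowers (t⁻¹ * y)) := by
    apply IsPGroup.of_card_dvd_pow (n := a + k)
    rw [Nat.card_zpowers]
    exact orderOf_dvd_of_pow_eq_one hzpow
  have hzT : t⁻¹ * y ∈ (T : Subgroup L) := hP.le_sylow_of_normal T (Subgroup.mem_zpowers _)
  have e : y = t * (t⁻¹ * y) := by group
  rw [e]
  exact Subgroup.mul_mem _ ht hzT

/-- If the fusion system of `L` on a Sylow `p`-subgroup `T` is constrained, so is the fusion system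
of `L/Z(L)` on the image of `T`. -/
theorem isConstrained_map_of_ker_center {L M : Type*} [Group L] [Group M] [Finite L] (p : ℕ)
    [Fact p.Prime] (π : L →* M) (hπ : Function.Surjective π) (hker : π.ker = Subgroup.center L)
    (T : Sylow p L) (hc : (groupFusionSystem (T : Subgroup L)).IsConstrained p) :
    (groupFusionSystem ((T : Subgroup L).map π)).IsConstrained p := by
  obtain ⟨hFsat, Q₀, hQ₀n, hQ₀c⟩ := hc
  have hTp : IsPGroup p (T : Subgroup L) := T.2
  have hMfin : Finite M := Finite.of_surjective π hπ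
  have hQ : (groupFusionSystem (T : Subgroup L)).IsNormal (groupFusionSystem (T : Subgroup L)).core :=
    isNormal_core _
  have hQc : (groupFusionSystem (T : Subgroup L)).IsCentric
      (groupFusionSystem (T : Subgroup L)).core :=
    Cfsg.Agent.S5095.centric_of_le _ hQ₀c (le_sSup hQ₀n) hQ.1
  have hQr : (groupFusionSystem (T : Subgroup L)).IsRadical p
      (groupFusionSystem (T : Subgroup L)).core := core_isRadical p hTp _ hFsat hQc
  have hQsc := stronglyClosed_of_isNormal _ hQ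
  obtain ⟨Q, hQdef⟩ : ∃ Q : Subgroup L, Q = (groupFusionSystem (T : Subgroup L)).core := ⟨_, rfl⟩
  rw [← hQdef] at hQ hQc hQr hQsc
  have hsat : (groupFusionSystem ((T : Subgroup L).map π)).IsSaturated p :=
    groupFS_saturated (T.mapSurjective hπ)
  have hpow : ∀ x ∈ (T : Subgroup L), ∀ g : L, ∃ k : ℕ, (g * x * g⁻¹) ^ p ^ k = 1 := by
    intro x hx g
    obtain ⟨k, hk⟩ := hTp ⟨x, hx⟩
    refine ⟨k, ?_⟩
    have hk' : x ^ p ^ k = 1 := by
      have := congrArg Subtype.val hk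
      rwa [Subgroup.coe_pow] at this
    rw [conj_pow, hk']
    simp
  have hTN : (T : Subgroup L) ≤ Subgroup.normalizer (Q : Set L) := normal_of_stronglyClosed _ hQsc
  refine ⟨hsat, Q.map π, ⟨Subgroup.map_mono hQ.1, ?_⟩, ⟨Subgroup.map_mono hQ.1, ?_⟩⟩
  · -- normal
    rintro P' φ' ⟨hP', hφ'T, g', hg'⟩
    obtain ⟨g, rfl⟩ := hπ g'
    have hPmap : (P'.comap π ⊓ (T : Subgroup L)).map π = P' := by
      apply le_antisymm
      · rintro _ ⟨x, hx, rfl⟩
        exact hx.1
      · intro y hy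
        obtain ⟨t, ht, rfl⟩ := hP' hy
        exact ⟨t, ⟨hy, ht⟩, rfl⟩
    have hφ : conjHom (P'.comap π ⊓ (T : Subgroup L)) g ∈
        (groupFusionSystem (T : Subgroup L)).Hom (P'.comap π ⊓ (T : Subgroup L)) := by
      refine ⟨inf_le_right, fun x => ?_, g, fun x => rfl⟩
      obtain ⟨k, hk⟩ := hpow x x.2.2 g
      apply mem_sylow_of_map_mem π hker T hk
      have h1 := hφ'T ⟨π x, x.2.1⟩
      rw [hg'] at h1
      rw [map_mul, map_mul, map_inv]
      exact h1
    obtain ⟨ψ, ⟨hPV, hψT, k, hk⟩, hext, hmap⟩ := hQ.2 _ _ hφ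
    have hsup : ∀ y ∈ P' ⊔ Q.map π, ∃ x ∈ (P'.comap π ⊓ (T : Subgroup L)) ⊔ Q, π x = y := by
      intro y hy
      have h1 : y ∈ ((P'.comap π ⊓ (T : Subgroup L)) ⊔ Q).map π := by
        rw [Subgroup.map_sup, hPmap]
        exact hy
      exact h1
    refine ⟨conjHom (P' ⊔ Q.map π) (π k), ⟨sup_le hP' (Subgroup.map_mono hQ.1), fun y => ?_,
      π k, fun y => rfl⟩, fun x => ?_, ?_⟩
    · obtain ⟨x, hx, hxy⟩ := hsup y y.2
      show π k * (y : M) * (π k)⁻¹ ∈ _
      rw [← hxy, ← map_inv, ← map_mul, ← map_mul]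
      have h1 := hψT ⟨x, hx⟩
      rw [hk] at h1
      exact Subgroup.mem_map_of_mem π h1
    · obtain ⟨x₀, hx₀, hxx⟩ := hPmap.ge x.2
      rw [hg' x]
      show π k * (x : M) * (π k)⁻¹ = π g * x * (π g)⁻¹
      have h1 := hext ⟨x₀, hx₀⟩
      rw [hk] at h1
      have h2 : k * x₀ * k⁻¹ = g * x₀ * g⁻¹ := h1
      have h3 := congrArg π h2
      rw [map_mul, map_mul, map_inv, map_mul, map_mul, map_inv, hxx] at h3
      exact h3
    · ext y
      constructor
      · rintro ⟨q, hq, rfl⟩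
        obtain ⟨q₀, hq₀, hqq⟩ := Subgroup.mem_subgroupOf.mp hq
        show π k * (q : M) * (π k)⁻¹ ∈ Q.map π
        rw [← hqq, ← map_inv, ← map_mul, ← map_mul]
        have h1 : ψ ⟨q₀, Subgroup.mem_sup_right hq₀⟩ ∈ Q :=
          hmap.le ⟨_, Subgroup.mem_subgroupOf.mpr hq₀, rfl⟩
        rw [hk] at h1
        exact Subgroup.mem_map_of_mem π h1
      · rintro ⟨v, hv, rfl⟩
        obtain ⟨w, hw, hwv⟩ := hmap.ge hv
        have hw' : (w : L) ∈ Q := Subgroup.mem_subgroupOf.mp hw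
        refine ⟨⟨π w, Subgroup.mem_sup_right (Subgroup.mem_map_of_mem π hw')⟩,
          Subgroup.mem_subgroupOf.mpr (Subgroup.mem_map_of_mem π hw'), ?_⟩
        show π k * π w * (π k)⁻¹ = π v
        rw [← hwv, hk, map_mul, map_mul, map_inv]
  · -- centric
    rintro Q'' ⟨φ', ⟨hQ'T, hφ'T, g', hg'⟩, hr⟩
    obtain ⟨g, rfl⟩ := hπ g'
    have hconj : ∀ q ∈ Q, g * q * g⁻¹ ∈ Q := by
      intro q hq
      have hφ : conjHom Q g ∈ (groupFusionSystem (T : Subgroup L)).Hom Q := by
        refine ⟨hQ.1, fun x => ?_, g, fun x => rfl⟩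
        obtain ⟨k, hk⟩ := hpow x (hQ.1 x.2) g
        apply mem_sylow_of_map_mem π hker T hk
        have h1 := hφ'T ⟨π x, Subgroup.mem_map_of_mem π x.2⟩
        rw [hg'] at h1
        rw [map_mul, map_mul, map_inv]
        exact h1
      exact hQsc.2 _ le_rfl _ hφ ⟨q, hq⟩
    have hQ'' : Q'' = Q.map π := by
      rw [← hr]
      apply Subgroup.eq_of_le_of_card_ge
      · rintro _ ⟨x, rfl⟩
        obtain ⟨q, hq, hqx⟩ := x.2
        rw [hg']
        show π g * (x : M) * (π g)⁻¹ ∈ _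
        rw [← hqx, ← map_inv, ← map_mul, ← map_mul]
        exact Subgroup.mem_map_of_mem π (hconj q hq)
      · exact le_of_eq (Nat.card_congr (Equiv.ofInjective φ'
          ((groupFusionSystem ((T : Subgroup L).map π)).injective_of_mem
            ⟨hQ'T, hφ'T, π g, hg'⟩)))
    rw [hQ'']
    rintro c ⟨hcT, hcC⟩
    obtain ⟨x, hxT, rfl⟩ := hcT
    refine Subgroup.mem_map_of_mem π ?_
    refine mem_of_radical_of_stab hTp _ (hQc.2 _ (Fusion.isConj_refl _ hQ.1)) hQr
      (Subgroup.center L ⊓ Q) ?_ x hxT (hTN hxT) ?_ ?_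
    · intro α hα y hy
      rw [groupFS_autGroup hQ.1, mem_autInducedBy_iff] at hα
      obtain ⟨n, -, -, hn⟩ := hα
      have e : ((α y : Q) : L) = y := by
        rw [hn]
        have h1 := Subgroup.mem_center_iff.1 hy.1 n
        rw [h1]
        group
      rw [e]
      exact hy
    · intro y
      refine ⟨?_, ?_⟩
      · show (y : L)⁻¹ * (x * y * x⁻¹) ∈ Subgroup.center L
        rw [← hker, MonoidHom.mem_ker]
        have hcC' : π x ∈ Subgroup.centralizer ((Q.map π : Subgroup M) : Set M) := hcC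
        have h1 := Subgroup.mem_centralizer_iff.1 hcC' (π y) (Subgroup.mem_map_of_mem π y.2)
        rw [map_mul, map_mul, map_mul, map_inv, map_inv, ← h1]
        group
      · exact Subgroup.mul_mem _ (Subgroup.inv_mem _ y.2)
          ((Subgroup.mem_normalizer_iff.1 (hTN hxT) y).1 y.2)
    · intro y hy
      have h1 := Subgroup.mem_center_iff.1 hy.1 x
      rw [h1]
      group

end Cfsg.Agent.Lib.Helper27
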