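import Mathlib

set_option autoImplicit false

namespace Cfsg.Agent.Lib.Helper27

/-- An automorphism of a finite group that is trivial on a Sylow `p`-subgroup and trivial modulo
an abelian normal `p`-subgroup `Z` is conjugation by an element of `Z`. -/
theorem exists_conj_of_cocycle {G : Type*} [Group G] [Finite G] {p : ℕ} [Fact p.Prime]
    (T : Sylow p G) (Z : Subgroup G) [hZn : Z.Normal] (hZp : IsPGroup p Z)
    (hZc : ∀ a ∈ Z, ∀ b ∈ Z, a * b = b * a) (ψ : G ≃* G) (hψZ : ∀ g, g⁻¹ * ψ g ∈ Z)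
    (hψT : ∀ t ∈ (T : Subgroup G), ψ t = t) : ∃ z ∈ Z, ∀ g, ψ g = z * g * z⁻¹ := by
  classical
  let _ : CommGroup Z :=
    { (inferInstance : Group Z) with mul_comm := fun a b => Subtype.ext (hZc a a.2 b b.2) }
  let χ : G → Z := fun g => ⟨g⁻¹ * ψ g, hψZ g⟩
  have hcoc : ∀ g h, χ (g * h) = MulAut.conjNormal h⁻¹ (χ g) * χ h := by
    intro g h
    apply Subtype.ext
    show (g * h)⁻¹ * ψ (g * h) = (h⁻¹ * (g⁻¹ * ψ g) * h⁻¹⁻¹) * (h⁻¹ * ψ h)
    rw [map_mul]
    group
  have hχT : ∀ t ∈ (T : Subgroup G), χ t = 1 := by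
    intro t ht
    apply Subtype.ext
    show t⁻¹ * ψ t = 1
    rw [hψT t ht, inv_mul_cancel]
  have hconst : ∀ a b : G, (QuotientGroup.rightRel (T : Subgroup G)) a b → χ a = χ b := by
    intro a b hab
    rw [QuotientGroup.rightRel_apply] at hab
    have e : b = (b * a⁻¹) * a := by group
    rw [e, hcoc, hχT _ hab, map_one, one_mul]
  let χbar : Quotient (QuotientGroup.rightRel (T : Subgroup G)) → Z := Quotient.lift χ hconst
  have _ : Fintype (Quotient (QuotientGroup.rightRel (T : Subgroup G))) := Fintype.ofFinite _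
  have _ : Fintype (G ⧸ (T : Subgroup G)) := Fintype.ofFinite _
  have key : ∀ h : G, (χ h) ^ Fintype.card (Quotient (QuotientGroup.rightRel (T : Subgroup G))) =
      (MulAut.conjNormal h⁻¹ (∏ q, χbar q))⁻¹ * ∏ q, χbar q := by
    intro h
    let eh : Quotient (QuotientGroup.rightRel (T : Subgroup G)) ≃
        Quotient (QuotientGroup.rightRel (T : Subgroup G)) :=
      Quotient.congr (Equiv.mulRight h) (by
        intro a b
        show (QuotientGroup.rightRel (T : Subgroup G)) a b ↔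
          (QuotientGroup.rightRel (T : Subgroup G)) (a * h) (b * h)
        rw [QuotientGroup.rightRel_apply, QuotientGroup.rightRel_apply]
        have e : b * h * (a * h)⁻¹ = b * a⁻¹ := by group
        rw [e])
    have h1 : ∀ q, χbar (eh q) = MulAut.conjNormal h⁻¹ (χbar q) * χ h := by
      intro q
      induction q using Quotient.inductionOn with
      | h g => exact hcoc g h
    have h3 : ∏ q, χbar q = MulAut.conjNormal h⁻¹ (∏ q, χbar q) *
        (χ h) ^ Fintype.card (Quotient (QuotientGroup.rightRel (T : Subgroup G))) := by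
      calc ∏ q, χbar q = ∏ q, χbar (eh q) := (Equiv.prod_comp eh χbar).symm
        _ = ∏ q, (MulAut.conjNormal h⁻¹ (χbar q) * χ h) :=
            Finset.prod_congr rfl (fun q _ => h1 q)
        _ = (∏ q, MulAut.conjNormal h⁻¹ (χbar q)) * ∏ _q : Quotient
              (QuotientGroup.rightRel (T : Subgroup G)), χ h := Finset.prod_mul_distrib
        _ = _ := by rw [← map_prod, Finset.prod_const, Finset.card_univ]
    rw [eq_inv_mul_iff_mul_eq]
    exact h3.symm
  have hm : Nat.Coprime (Fintype.card (Quotient (QuotientGroup.rightRel (T : Subgroup G))))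
      (Nat.card Z) := by
    obtain ⟨k, hk⟩ := IsPGroup.iff_card.1 hZp
    rw [hk]
    apply Nat.Coprime.pow_right
    have h0 : Fintype.card (Quotient (QuotientGroup.rightRel (T : Subgroup G))) =
        (T : Subgroup G).index := by
      rw [← Nat.card_eq_fintype_card]
      exact Nat.card_congr (QuotientGroup.quotientRightRelEquivQuotientLeftRel _)
    rw [h0]
    have h1 : ¬ p ∣ (T : Subgroup G).index := T.not_dvd_index
    exact ((Nat.Prime.coprime_iff_not_dvd Fact.out).2 h1).symm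
  obtain ⟨m', -, hm'⟩ := Nat.exists_mul_mod_eq_of_coprime 1 hm Nat.card_pos.ne'
  have hpow : ∀ x : Z,
      (x ^ Fintype.card (Quotient (QuotientGroup.rightRel (T : Subgroup G)))) ^ m' = x := by
    intro x
    rw [← pow_mul, ← pow_mod_natCard, hm', pow_mod_natCard, pow_one]
  refine ⟨(((∏ q, χbar q) ^ m')⁻¹ : Z), Subtype.property _, fun g => ?_⟩
  have h1 : (χ g ^ Fintype.card (Quotient (QuotientGroup.rightRel (T : Subgroup G)))) ^ m' =
      ((MulAut.conjNormal g⁻¹ (∏ q, χbar q))⁻¹ * ∏ q, χbar q) ^ m' := by rw [key g]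
  rw [hpow, mul_pow, inv_pow, ← map_pow] at h1
  have h2 := congrArg Subtype.val h1
  have h3 : g⁻¹ * ψ g = (g⁻¹ * ((((∏ q, χbar q) ^ m' : Z) : G)) * g⁻¹⁻¹)⁻¹ *
      (((∏ q, χbar q) ^ m' : Z) : G) := h2
  rw [inv_mul_eq_iff_eq_mul] at h3
  rw [h3]
  show _ = (((∏ q, χbar q) ^ m' : Z) : G)⁻¹ * g * (((∏ q, χbar q) ^ m' : Z) : G)⁻¹⁻¹
  group

end Cfsg.Agent.Lib.Helper27
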