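import Mathlib
import Cfsg.Prelude.Def_FusionSystem
import Cfsg.Agent.Lib.Helper27.Induct
import Cfsg.Agent.Lib.Helper27.Sparse

set_option autoImplicit false

namespace Cfsg.Agent.Lib.Helper27

open Cfsg Cfsg.FusionSystem Cfsg.Agent.Lib.Helper26

/-- A finite group with a characteristic cyclic subgroup of `2`-power order and index `2` has a
`2`-group of automorphisms. -/
theorem isPGroup_mulAut_of_cyclic_index_two {G : Type*} [Group G] [Finite G] (c : G) (e : ℕ)
    (hc : orderOf c = 2 ^ e) (hidx : (Subgroup.zpowers c).index = 2)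
    (hchar : ∀ α : MulAut G, α c ∈ Subgroup.zpowers c) : IsPGroup 2 (MulAut G) := by
  intro α
  obtain ⟨k, hk⟩ : ∃ k : ℕ, α c = c ^ k := by
    obtain ⟨k, hk⟩ := (Submonoid.mem_powers_iff _ _).mp (mem_powers_iff_mem_zpowers.mpr (hchar α))
    exact ⟨k, hk.symm⟩
  obtain ⟨j, hj⟩ : ∃ j : ℕ, α⁻¹ c = c ^ j := by
    obtain ⟨j, hj⟩ := (Submonoid.mem_powers_iff _ _).mp (mem_powers_iff_mem_zpowers.mpr (hchar α⁻¹))
    exact ⟨j, hj.symm⟩
  have hkj : c ^ (k * j) = c ^ 1 := by
    have h1 : α (α⁻¹ c) = c := by simp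
    rw [hj, map_pow, hk, ← pow_mul] at h1
    rw [h1, pow_one]
  have hmod : k * j ≡ 1 [MOD 2 ^ e] := by
    rw [← hc]
    exact pow_eq_pow_iff_modEq.mp hkj
  have hcop : k.Coprime (2 ^ e) := Nat.coprime_of_mul_modEq_one j hmod
  have hEuler := Nat.ModEq.pow_totient hcop
  have hiter : ∀ i : ℕ, (α ^ i) c = c ^ (k ^ i) := by
    intro i
    induction i with
    | zero => simp
    | succ i ih => rw [pow_succ', MulAut.mul_apply, ih, map_pow, hk, ← pow_mul, pow_succ']
  obtain ⟨β, hβ⟩ : ∃ β : MulAut G, β = α ^ Nat.totient (2 ^ e) := ⟨_, rfl⟩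
  have hβc : β c = c := by
    rw [hβ, hiter]
    have h1 : c ^ (k ^ Nat.totient (2 ^ e)) = c ^ 1 :=
      pow_eq_pow_iff_modEq.mpr (by rw [hc]; exact hEuler)
    rw [h1, pow_one]
  have hβC : ∀ x ∈ Subgroup.zpowers c, β x = x := by
    intro x hx
    obtain ⟨i, rfl⟩ := Subgroup.mem_zpowers_iff.mp hx
    rw [map_zpow, hβc]
  have hβinvC : ∀ x ∈ Subgroup.zpowers c, β⁻¹ x = x := by
    intro x hx
    have h1 := hβC x hx
    conv_lhs => rw [← h1]
    simp
  have hquot : ∀ s : G, s⁻¹ * β s ∈ Subgroup.zpowers c := by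
    intro s
    rw [Subgroup.mul_mem_iff_of_index_two hidx, inv_mem_iff]
    constructor
    · intro hs
      rw [hβC s hs]
      exact hs
    · intro hs
      have h1 := hβinvC _ hs
      rw [MulAut.inv_apply_self] at h1
      rw [h1]
      exact hs
  have hpow : ∀ (s : G) (i : ℕ), (β ^ i) s = s * (s⁻¹ * β s) ^ i := by
    intro s i
    induction i with
    | zero => simp
    | succ i ih =>
      rw [pow_succ', MulAut.mul_apply, ih, map_mul, map_pow, hβC _ (hquot s)]
      have e : s * (s⁻¹ * β s) ^ (i + 1) = β s * (s⁻¹ * β s) ^ i := by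
        rw [pow_succ', ← mul_assoc, mul_inv_cancel_left]
      exact e.symm
  have hβord : β ^ 2 ^ e = 1 := by
    apply MulEquiv.ext
    intro s
    rw [hpow]
    obtain ⟨i, hi⟩ := Subgroup.mem_zpowers_iff.mp (hquot s)
    rw [← hi, ← zpow_natCast, ← zpow_mul, mul_comm, zpow_mul, zpow_natCast, ← hc,
      pow_orderOf_eq_one, one_zpow, mul_one]
    rfl
  have hφ : Nat.totient (2 ^ e) ∣ 2 ^ e := by
    rcases Nat.eq_zero_or_pos e with h0 | hpos
    · rw [h0]
      simp
    · rw [Nat.totient_prime_pow Nat.prime_two hpos]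
      simp only [Nat.add_one_sub_one, mul_one]
      exact pow_dvd_pow 2 (Nat.sub_le e 1)
  obtain ⟨q, hq⟩ := hφ
  refine ⟨e + e, ?_⟩
  rw [pow_add]
  nth_rewrite 1 [hq]
  rw [mul_assoc, pow_mul, ← hβ, mul_comm, pow_mul, hβord, one_pow]

theorem isPGroup_mulAut_dihedral (n : ℕ) (hn : 4 ≤ n) :
    IsPGroup 2 (MulAut (DihedralGroup (2 ^ (n - 1)))) := by
  have hm : 8 ≤ 2 ^ (n - 1) := by
    calc 8 = 2 ^ 3 := by norm_num
      _ ≤ 2 ^ (n - 1) := Nat.pow_le_pow_right (by norm_num) (by omega)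
  have : NeZero (2 ^ (n - 1)) := ⟨by positivity⟩
  apply isPGroup_mulAut_of_cyclic_index_two (DihedralGroup.r 1) (n - 1)
    DihedralGroup.orderOf_r_one
  · have h1 := Subgroup.index_mul_card
      (Subgroup.zpowers (DihedralGroup.r (1 : ZMod (2 ^ (n - 1)))))
    rw [Nat.card_zpowers, DihedralGroup.orderOf_r_one, DihedralGroup.nat_card] at h1
    exact Nat.eq_of_mul_eq_mul_right (by positivity) h1
  · intro α
    have hord : orderOf (α (DihedralGroup.r 1)) = 2 ^ (n - 1) := by
      rw [MulEquiv.orderOf_eq, DihedralGroup.orderOf_r_one]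
    cases h : α (DihedralGroup.r 1) with
    | r i =>
      rw [Subgroup.mem_zpowers_iff]
      refine ⟨(i.val : ℤ), ?_⟩
      rw [zpow_natCast, DihedralGroup.r_one_pow, ZMod.natCast_zmod_val]
    | sr i =>
      rw [h, DihedralGroup.orderOf_sr] at hord
      omega

theorem isPGroup_mulAut_quaternion (n : ℕ) (hn : 4 ≤ n) :
    IsPGroup 2 (MulAut (QuaternionGroup (2 ^ (n - 2)))) := by
  have hm : 4 ≤ 2 ^ (n - 2) := by
    calc 4 = 2 ^ 2 := by norm_num
      _ ≤ 2 ^ (n - 2) := Nat.pow_le_pow_right (by norm_num) (by omega)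
  have : NeZero (2 ^ (n - 2)) := ⟨by positivity⟩
  have he : 2 * 2 ^ (n - 2) = 2 ^ (n - 1) := by
    have h1 : n - 1 = (n - 2) + 1 := by omega
    rw [h1, pow_succ]
    ring
  have hc : orderOf (QuaternionGroup.a (1 : ZMod (2 * 2 ^ (n - 2)))) = 2 ^ (n - 1) := by
    rw [QuaternionGroup.orderOf_a_one, he]
  apply isPGroup_mulAut_of_cyclic_index_two (QuaternionGroup.a 1) (n - 1) hc
  · have h1 := Subgroup.index_mul_card
      (Subgroup.zpowers (QuaternionGroup.a (1 : ZMod (2 * 2 ^ (n - 2)))))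
    rw [Nat.card_zpowers, QuaternionGroup.orderOf_a_one, Nat.card_eq_fintype_card,
      QuaternionGroup.card] at h1
    have h2 : (Subgroup.zpowers (QuaternionGroup.a (1 : ZMod (2 * 2 ^ (n - 2))))).index *
        (2 * 2 ^ (n - 2)) = 2 * (2 * 2 ^ (n - 2)) := by
      rw [h1]
      ring
    exact Nat.eq_of_mul_eq_mul_right (by positivity) h2
  · intro α
    have hord : orderOf (α (QuaternionGroup.a 1)) = 2 ^ (n - 1) := by
      rw [MulEquiv.orderOf_eq, hc]
    cases h : α (QuaternionGroup.a 1) with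
    | a i =>
      rw [Subgroup.mem_zpowers_iff]
      refine ⟨(i.val : ℤ), ?_⟩
      rw [zpow_natCast, QuaternionGroup.a_one_pow, ZMod.natCast_zmod_val]
    | xa i =>
      rw [h, QuaternionGroup.orderOf_xa] at hord
      have h8 : 8 ≤ 2 ^ (n - 1) := by
        calc 8 = 2 ^ 3 := by norm_num
          _ ≤ 2 ^ (n - 1) := Nat.pow_le_pow_right (by norm_num) (by omega)
      omega

variable {Ω : Type*} [Group Ω] {S : Subgroup Ω}

/-- If `Aut(S)` is a `p`-group then `Aut_F(S) = Inn(S)` for every saturated `F`. -/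
theorem autGroup_top_eq_inn_of_isPGroup [Finite S] (p : ℕ) [Fact p.Prime] (F : FusionSystem S)
    (hF : F.IsSaturated p) (hA : IsPGroup p (MulAut S)) : F.autGroup S = Inn S := by
  obtain ⟨-, R, hR⟩ := (top_automized_receptive p F hF).1
  have hAF : IsPGroup p (F.autGroup S) := hA.to_subgroup _
  have htop : (⊤ : Subgroup (F.autGroup S)) = (R : Subgroup (F.autGroup S)) :=
    R.3 (hAF.to_subgroup ⊤) le_top
  apply le_antisymm
  · intro α hα
    have h1 : (⟨α, hα⟩ : F.autGroup S) ∈ (R : Subgroup (F.autGroup S)) := by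
      rw [← htop]
      trivial
    rw [hR, Subgroup.mem_subgroupOf] at h1
    rw [← autInducedBy_self]
    exact h1
  · rw [← autInducedBy_self]
    exact Fusion.autInducedBy_le_autGroup F le_rfl

end Cfsg.Agent.Lib.Helper27
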