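import Mathlib
import Cfsg.Prelude.Def_FusionSystem
import Cfsg.Agent.Lib.Helper27.PPowerNormal

set_option autoImplicit false

namespace Cfsg.Agent.Lib.Helper27

open Cfsg Cfsg.FusionSystem Cfsg.Agent.Lib.Helper26

variable {Ω : Type*} [Group Ω] {S : Subgroup Ω}

/-- A map agreeing pointwise with a map of the system on a larger subgroup is a map of the
system. -/
theorem mem_hom_of_pointwise (E : FusionSystem S) {P Q : Subgroup Ω} {χ : Q →* Ω}
    (hχ : χ ∈ E.Hom Q) (ψ : P →* Ω) (h : ∀ x : P, ∃ hx : (x : Ω) ∈ Q, ψ x = χ ⟨x, hx⟩) :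
    ψ ∈ E.Hom P := by
  have hPQ : P ≤ Q := fun x hx => (h ⟨x, hx⟩).1
  have e : ψ = χ.comp (Subgroup.inclusion hPQ) := by
    ext x
    obtain ⟨hx, h1⟩ := h x
    exact h1
  rw [e]
  exact restrict_mem E hχ hPQ

/-- The maps all of whose conjugates under a group `A` of automorphisms of `S` lie in `E`. -/
def invSys (E : FusionSystem S) (A : Subgroup (MulAut S)) : FusionSystem S where
  Hom P := {ψ | ∀ α ∈ A, ConjHom E α P ψ}
  le_of_mem := fun h => (conjSys E 1).le_of_mem (h 1 (one_mem _))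
  injective_of_mem := fun h => conjHom_injective (h 1 (one_mem _))
  conj_mem := fun hP hg α _ => (conjSys E α).conj_mem hP hg
  comp_mem := fun h₁ h₂ hval α hα => (conjSys E α).comp_mem (h₁ α hα) (h₂ α hα) hval
  inv_mem := by
    intro P φ h
    obtain ⟨χ, hχ, hχv⟩ := (conjSys E 1).inv_mem (h 1 (one_mem _))
    refine ⟨χ, fun α hα => ?_, hχv⟩
    obtain ⟨χ', hχ', hχ'v⟩ := (conjSys E α).inv_mem (h α hα)
    have e : χ' = χ := by
      ext ⟨_, x, rfl⟩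
      rw [hχ'v, hχv]
    rw [← e]
    exact hχ'

theorem invSys_le (E : FusionSystem S) (A : Subgroup (MulAut S)) {P : Subgroup Ω} {ψ : P →* Ω}
    (h : ψ ∈ (invSys E A).Hom P) : ψ ∈ E.Hom P := by
  obtain ⟨hPS, hψ, χ, hχ, hs⟩ := h 1 (one_mem _)
  apply mem_hom_of_pointwise E hχ
  intro x
  exact ⟨(show (x : Ω) ∈ imgSub (1 : MulAut S) P from
    mem_imgSub (1 : MulAut S) ⟨x, hPS x.2⟩ x.2), (hs x).symm⟩

theorem autInv_invSys (E : FusionSystem S) (F : FusionSystem S) :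
    AutInv (invSys E (F.autGroup S)) F := by
  intro P hPS φ hφ α hα
  obtain ⟨hPS₁, hψ, χ, hχ, hs⟩ := hφ α hα
  refine ⟨χ, fun β hβ => ?_, fun x hφx hαx => hs x⟩
  obtain ⟨hPS₂, hψ'', χ'', hχ'', hs''⟩ := hφ (β * α) (mul_mem hβ hα)
  have hQS : imgSub α P ≤ S := imgSub_le α P
  have hχS := (E.le_of_mem hχ).2
  have hle : imgSub β (imgSub α P) ≤ imgSub (β * α) P := by
    intro z hz
    obtain ⟨y, hy, rfl⟩ := exists_of_mem_imgSub hz
    obtain ⟨x, hx, hxy⟩ := exists_of_mem_imgSub hy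
    have e : y = α x := Subtype.ext hxy.symm
    rw [e]
    exact mem_imgSub (β * α) x hx
  refine ⟨hQS, hχS, χ''.comp (Subgroup.inclusion hle), restrict_mem E hχ'' hle, ?_⟩
  rintro ⟨y, hy⟩
  obtain ⟨x, hx, rfl⟩ := exists_of_mem_imgSub hy
  have h1 := hs'' ⟨x, hx⟩
  have h2 := hs ⟨x, hx⟩
  have e2 : (⟨χ ⟨((α x : S) : Ω), hy⟩, hχS _⟩ : S) = α ⟨φ ⟨x, hx⟩, hψ ⟨x, hx⟩⟩ :=
    Subtype.ext h2
  refine Eq.trans ?_ (congrArg (fun z : S => ((β z : S) : Ω)) e2).symm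
  exact h1

theorem isConj_imgSub (F : FusionSystem S) {α : MulAut S} (hα : α ∈ F.autGroup S)
    {P : Subgroup Ω} (hPS : P ≤ S) : F.IsConj P (imgSub α P) := by
  refine ⟨(S.subtype.comp α.toMonoidHom).comp (Subgroup.inclusion hPS),
    restrict_mem F ((Fusion.mem_autGroup_iff F le_rfl).1 hα) hPS, ?_⟩
  ext y
  constructor
  · rintro ⟨x, rfl⟩
    exact mem_imgSub α ⟨x, hPS x.2⟩ x.2
  · intro hy
    obtain ⟨x, hx, rfl⟩ := exists_of_mem_imgSub hy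
    exact ⟨⟨x, hx⟩, rfl⟩

theorem isCentric_of_isConj (F : FusionSystem S) {P Q : Subgroup Ω} (hPQ : F.IsConj P Q)
    (hP : F.IsCentric P) : F.IsCentric Q := by
  obtain ⟨φ, hφ, hr⟩ := hPQ
  refine ⟨?_, fun Q' hQ' => hP.2 Q' (Fusion.isConj_trans F ⟨φ, hφ, hr⟩ hQ')⟩
  rw [← hr]
  rintro _ ⟨x, rfl⟩
  exact hom_mem F hφ x

/-- The elements of `p`-power order of `Aut_F(P)`, `P` centric, lie in the invariant
subsystem. -/
theorem pElt_mem_invSys (p : ℕ) (F : FusionSystem S) (E : FusionSystem S)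
    (h : ∀ P : Subgroup Ω, F.IsCentric P →
      (Subgroup.closure {α : ↥(F.autGroup P) | ∃ k : ℕ, orderOf α = p ^ k}).map
        (F.autGroup P).subtype ≤ E.autGroup P)
    {P : Subgroup Ω} (hP : F.IsCentric P) :
    (Subgroup.closure {α : ↥(F.autGroup P) | ∃ k : ℕ, orderOf α = p ^ k}).map
      (F.autGroup P).subtype ≤ (invSys E (F.autGroup S)).autGroup P := by
  have hPS := hP.1
  rw [Subgroup.map_le_iff_le_comap, Subgroup.closure_le]
  rintro γ ⟨k, hk⟩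
  show (γ : MulAut P) ∈ (invSys E (F.autGroup S)).autGroup P
  rw [Fusion.mem_autGroup_iff _ hPS]
  intro α hα
  have hQS : imgSub α P ≤ S := imgSub_le α P
  have hγ'F := congr_mem_autGroup F le_rfl hα hPS γ.2
  have hord : orderOf (⟨MulAut.congr (imgEquiv α hPS) (γ : MulAut P), hγ'F⟩ :
      F.autGroup (imgSub α P)) = p ^ k := by
    rw [Subgroup.orderOf_mk, MulEquiv.orderOf_eq, Subgroup.orderOf_coe]
    exact hk
  have hcen : F.IsCentric (imgSub α P) := isCentric_of_isConj F (isConj_imgSub F hα hPS) hP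
  have hγ'E : MulAut.congr (imgEquiv α hPS) (γ : MulAut P) ∈ E.autGroup (imgSub α P) :=
    h _ hcen ⟨_, Subgroup.subset_closure ⟨k, hord⟩, rfl⟩
  refine ⟨hPS, fun x => hPS ((γ : MulAut P) x).2, _, (Fusion.mem_autGroup_iff E hQS).1 hγ'E,
    fun x => ?_⟩
  show ((MulAut.congr (imgEquiv α hPS) (γ : MulAut P) (imgEquiv α hPS x) : imgSub α P) : Ω) =
    ((imgEquiv α hPS ((γ : MulAut P) x) : imgSub α P) : Ω)
  rw [congr_imgEquiv_apply]

/-- A receptive subgroup containing its centralizer in `S` is centric. -/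
theorem isCentric_of_receptive (F : FusionSystem S) {P : Subgroup Ω} (hPr : F.IsReceptive P)
    (hC : centralizerIn S P ≤ P) : F.IsCentric P := by
  refine ⟨hPr.1, fun Q hQ => ?_⟩
  obtain ⟨ψ, hψ, hr⟩ := Fusion.isConj_symm F hQ
  have hQS : Q ≤ S := (F.le_of_mem hψ).1
  obtain ⟨ψ', hψ', hext⟩ := hPr.2 Q ψ hψ hr
  have hQN : Q ≤ extender S Q ψ := le_extender hQS (fun x => hom_mem F hψ x)
  intro c hc
  have hcN : c ∈ extender S Q ψ := centralizerIn_le_extender ψ hc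
  have h1 : ψ' ⟨c, hcN⟩ ∈ centralizerIn S P := by
    refine ⟨hom_mem F hψ' _, ?_⟩
    apply Subgroup.mem_centralizer_iff.mpr
    intro y hy
    have hy' : y ∈ ψ.range := by rw [hr]; exact hy
    obtain ⟨q, rfl⟩ := hy'
    rw [← hext q q.2 (hQN q.2), ← map_mul, ← map_mul]
    congr 1
    exact Subtype.ext ((Subgroup.mem_centralizer_iff.mp hc.2) q q.2)
  have h2 : ψ' ⟨c, hcN⟩ ∈ ψ.range := by rw [hr]; exact hC h1
  obtain ⟨q, hq⟩ := h2
  have h3 : ψ' ⟨q, hQN q.2⟩ = ψ' ⟨c, hcN⟩ := (hext q q.2 (hQN q.2)).trans hq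
  have h4 := F.injective_of_mem hψ' h3
  have h5 : (q : Ω) = c := congrArg Subtype.val h4
  rw [← h5]
  exact q.2

theorem stronglyClosed_top (F : FusionSystem S) : F.StronglyClosed S :=
  ⟨le_rfl, fun _ _ _ hφ x => hom_mem F hφ x⟩

theorem pPowerClosure_normal (p : ℕ) (G : Type*) [Group G] :
    (Subgroup.closure {g : G | ∃ k : ℕ, orderOf g = p ^ k}).Normal := by
  constructor
  intro n hn g
  have hle : Subgroup.closure {g : G | ∃ k : ℕ, orderOf g = p ^ k} ≤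
      (Subgroup.closure {g : G | ∃ k : ℕ, orderOf g = p ^ k}).comap
        (MulAut.conj g).toMonoidHom := by
    rw [Subgroup.closure_le]
    rintro x ⟨k, hk⟩
    apply Subgroup.subset_closure
    refine ⟨k, ?_⟩
    show orderOf (MulAut.conj g x) = p ^ k
    rw [MulEquiv.orderOf_eq]
    exact hk
  exact hle hn

/-- Every map of `F` is an element of `Aut_F(S)` composed with a map of the invariant
subsystem. -/
theorem le_decomp_invSys [Finite S] (p : ℕ) [Fact p.Prime] (hS : IsPGroup p S)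
    (F : FusionSystem S) (hF : F.IsSaturated p) (E : FusionSystem S)
    (h : ∀ P : Subgroup Ω, F.IsCentric P →
      (Subgroup.closure {α : ↥(F.autGroup P) | ∃ k : ℕ, orderOf α = p ^ k}).map
        (F.autGroup P).subtype ≤ E.autGroup P) :
    F ≤ decompSystem F (invSys E (F.autGroup S)) (stronglyClosed_top F) (autInv_invSys E F) := by
  apply fusion_induction p hS F hF
  intro P hPa hPr IH α hα
  have hPS : P ≤ S := hPa.1
  have hPfin : Finite P := finite_of_le hPS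
  have hα' := (Fusion.mem_autGroup_iff F hPS).1 hα
  by_cases hTP : S ≤ P
  · rw [Fusion.mem_autGroup_iff _ hPS]
    have hres := Fusion.restrict_mem F hα' hTP
    have hr : ((P.subtype.comp α.toMonoidHom).comp (Subgroup.inclusion hTP)).range = S := by
      apply Subgroup.eq_of_le_of_card_ge
      · rintro _ ⟨t, rfl⟩
        exact hom_mem F hres t
      · exact le_of_eq (Nat.card_congr (Equiv.ofInjective _ (F.injective_of_mem hres)))
    refine ⟨hα', Fusion.equivOfRange _ (F.injective_of_mem hres) hr,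
      (Fusion.mem_autGroup_iff F le_rfl).2 (Fusion.isIso_equivOfRange F hres hr),
      (P ⊓ S).subtype, Fusion.subtype_mem _ inf_le_right, fun x hx => rfl⟩
  · have hlt : P < S := lt_of_le_of_ne hPS (fun h => hTP h.ge)
    by_cases hcen : F.IsCentric P
    · obtain ⟨-, R, hR⟩ := hPa
      obtain ⟨K, hKdef⟩ : ∃ K : Subgroup (F.autGroup P), K =
          Subgroup.closure {α : ↥(F.autGroup P) | ∃ k : ℕ, orderOf α = p ^ k} := ⟨_, rfl⟩
      have hKn : K.Normal := by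
        rw [hKdef]
        exact pPowerClosure_normal p _
      have hRK : (R : Subgroup (F.autGroup P)) ≤ K := by
        intro r hr
        rw [hKdef]
        apply Subgroup.subset_closure
        obtain ⟨k, hk⟩ := (IsPGroup.iff_orderOf.mp R.2) ⟨r, hr⟩
        refine ⟨k, ?_⟩
        rw [← hk]
        exact (Subgroup.orderOf_mk r hr).symm
      have hcard := card_sylow_inf_normal R K
      obtain ⟨n, hn, κ, hκ, hnκ⟩ := frattini_decomp
        (inf_le_right : (R : Subgroup (F.autGroup P)) ⊓ K ≤ K) hcard ⟨α, hα⟩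
      have hκE : (κ : MulAut P) ∈ (decompSystem F (invSys E (F.autGroup S))
          (stronglyClosed_top F) (autInv_invSys E F)).autGroup P := by
        rw [Fusion.mem_autGroup_iff _ hPS]
        have hκ' := (Fusion.mem_autGroup_iff F hPS).1 κ.2
        have hκ1 : (κ : MulAut P) ∈ (invSys E (F.autGroup S)).autGroup P :=
          pElt_mem_invSys p F E h hcen ⟨κ, hKdef ▸ hκ, rfl⟩
        exact ⟨hκ', 1, one_mem _, _,
          restrict_mem _ ((Fusion.mem_autGroup_iff _ hPS).1 hκ1) inf_le_left, fun x hx => rfl⟩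
      have hnE : (n : MulAut P) ∈ (decompSystem F (invSys E (F.autGroup S))
          (stronglyClosed_top F) (autInv_invSys E F)).autGroup P := by
        apply mem_autGroup_of_extender_lt F _ hPr IH n.2
        obtain ⟨g, hgS, hgN, hgP⟩ := exists_mem_normalizer_not_mem hS hlt
        refine lt_of_le_not_ge (le_extender hPS (fun x => hPS (n.1 x).2)) (fun hle => hgP (hle ?_))
        have hτA : P.normalizerMonoidHom ⟨g, hgN⟩ ∈ F.autGroup P :=
          Fusion.autInducedBy_le_autGroup F hPS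
            (Subgroup.subset_closure ⟨g, hgS, fun x => rfl⟩)
        have hτR : (⟨P.normalizerMonoidHom ⟨g, hgN⟩, hτA⟩ : F.autGroup P) ∈
            (R : Subgroup (F.autGroup P)) := by
          rw [hR, Subgroup.mem_subgroupOf]
          exact Subgroup.subset_closure ⟨g, hgS, fun x => rfl⟩
        have hτRK : (⟨P.normalizerMonoidHom ⟨g, hgN⟩, hτA⟩ : F.autGroup P) ∈
            (R : Subgroup (F.autGroup P)) ⊓ K := ⟨hτR, hRK hτR⟩
        have hconj := (Subgroup.mem_normalizer_iff.mp hn _).mp hτRK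
        rw [Subgroup.mem_inf] at hconj
        have hconjR := hconj.1
        rw [hR, Subgroup.mem_subgroupOf] at hconjR
        obtain ⟨h', hhS, -, hh⟩ := mem_autInducedBy_iff.mp hconjR
        refine Subgroup.subset_closure ⟨hgS, hgN, h', hhS, fun x hx => ?_⟩
        have h3 := hh ((n : MulAut P) x)
        have e4 : ((n * (⟨P.normalizerMonoidHom ⟨g, hgN⟩, hτA⟩ : F.autGroup P) * n⁻¹ :
            F.autGroup P) : MulAut P) ((n : MulAut P) x) =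
            (n : MulAut P) (P.normalizerMonoidHom ⟨g, hgN⟩ x) := by
          show (n : MulAut P) (P.normalizerMonoidHom ⟨g, hgN⟩
            ((n : MulAut P)⁻¹ ((n : MulAut P) x))) = _
          simp
        rw [e4] at h3
        exact h3
      have hαeq : α = (n : MulAut P) * (κ : MulAut P) := congrArg Subtype.val hnκ
      rw [hαeq]
      exact Subgroup.mul_mem _ hnE hκE
    · have hC : ¬ centralizerIn S P ≤ P := fun hC => hcen (isCentric_of_receptive F hPr hC)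
      apply mem_autGroup_of_extender_lt F _ hPr IH hα
      refine lt_of_le_not_ge (le_extender hPS (fun x => hPS (α x).2)) (fun hle => hC ?_)
      exact (centralizerIn_le_extender _).trans hle

/-- If every map of `F` is decomposable, then the subsystem is strongly invariant. -/
theorem strongInv_of_le_decomp [Finite S] (F : FusionSystem S) {T : Subgroup Ω}
    (E : FusionSystem T) (hT : F.StronglyClosed T) (hinv : AutInv E F)
    (hle : F ≤ decompSystem F E hT hinv) : StrongInv E F := by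
  intro P Q hPQ hQT φ hφ hφQ ψ hψ
  obtain ⟨-, α, hα, ψ₀, hψ₀, hdec⟩ := hle Q hψ
  have hPQT : P ≤ Q ⊓ T := le_inf hPQ (hPQ.trans hQT)
  have hψ₀T := (E.le_of_mem hψ₀).2
  have hψ₁ : ψ₀.comp (Subgroup.inclusion hPQT) ∈ E.Hom P := restrict_mem E hψ₀ hPQT
  obtain ⟨ρ, hρ, hρv⟩ := E.inv_mem hψ₁
  have hval1 : ∀ y : (ψ₀.comp (Subgroup.inclusion hPQT)).range, ρ y ∈ P := by
    rintro ⟨_, x, rfl⟩
    rw [hρv]
    exact x.2
  have h1 := E.comp_mem hρ hφ hval1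
  have hval2 : ∀ y : (ψ₀.comp (Subgroup.inclusion hPQT)).range,
      (φ.comp (ρ.codRestrict P hval1)) y ∈ Q ⊓ T := fun y => ⟨hφQ _, hQT (hφQ _)⟩
  have h2 := E.comp_mem h1 hψ₀ hval2
  have hrT : (ψ₀.comp (Subgroup.inclusion hPQT)).range ≤ T := by
    rintro _ ⟨x, rfl⟩
    exact hψ₀T _
  obtain ⟨χ, hχ, hχv⟩ := autInv_apply hinv hrT h2 hα
  have hle' : (P.subgroupOf Q).map ψ ≤
      ((ψ₀.comp (Subgroup.inclusion hPQT)).range.subgroupOf T).map
        (T.subtype.comp α.toMonoidHom) := by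
    rintro _ ⟨x, hx, rfl⟩
    have hxP : (x : Ω) ∈ P := Subgroup.mem_subgroupOf.mp hx
    refine ⟨⟨ψ₀ ⟨x, hPQT hxP⟩, hψ₀T _⟩, Subgroup.mem_subgroupOf.mpr ⟨⟨x, hxP⟩, rfl⟩, ?_⟩
    exact (hdec ⟨x, hPQT hxP⟩ (hψ₀T _)).symm
  refine ⟨χ.comp (Subgroup.inclusion hle'), restrict_mem E hχ hle', fun x hx => ?_⟩
  have e1 := hdec ⟨x, hPQT x.2⟩ (hψ₀T _)
  have e2 := hdec ⟨φ x, ⟨hφQ x, hQT (hφQ x)⟩⟩ (hψ₀T _)
  have hxr : ψ₀ ⟨x, hPQT x.2⟩ ∈ (ψ₀.comp (Subgroup.inclusion hPQT)).range := ⟨x, rfl⟩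
  have e4 : (ρ.codRestrict P hval1) ⟨ψ₀ ⟨x, hPQT x.2⟩, hxr⟩ = x := Subtype.ext (hρv x)
  have e5 : ((φ.comp (ρ.codRestrict P hval1)).codRestrict (Q ⊓ T) hval2)
      ⟨ψ₀ ⟨x, hPQT x.2⟩, hxr⟩ = ⟨φ x, ⟨hφQ x, hQT (hφQ x)⟩⟩ :=
    Subtype.ext (congrArg φ e4)
  have hy : ((α ⟨ψ₀ ⟨x, hPQT x.2⟩, hψ₀T _⟩ : T) : Ω) ∈
      ((ψ₀.comp (Subgroup.inclusion hPQT)).range.subgroupOf T).map
        (T.subtype.comp α.toMonoidHom) :=
    ⟨⟨ψ₀ ⟨x, hPQT x.2⟩, hψ₀T _⟩, Subgroup.mem_subgroupOf.mpr hxr, rfl⟩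
  have e3 := hχv ⟨ψ₀ ⟨x, hPQT x.2⟩, hψ₀T _⟩ (α ⟨ψ₀ ⟨x, hPQT x.2⟩, hψ₀T _⟩) hxr hy
    ⟨ψ₀ ⟨φ x, ⟨hφQ x, hQT (hφQ x)⟩⟩, hψ₀T _⟩ rfl (by
      show ψ₀ ⟨φ x, ⟨hφQ x, hQT (hφQ x)⟩⟩ = ψ₀ (((φ.comp (ρ.codRestrict P hval1)).codRestrict
        (Q ⊓ T) hval2) ⟨ψ₀ ⟨x, hPQT x.2⟩, hxr⟩)
      rw [e5])
  have e6 : (Subgroup.inclusion hle' ⟨ψ (Subgroup.inclusion hPQ x), hx⟩ :
      ↥(((ψ₀.comp (Subgroup.inclusion hPQT)).range.subgroupOf T).map
        (T.subtype.comp α.toMonoidHom))) =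
      ⟨((α ⟨ψ₀ ⟨x, hPQT x.2⟩, hψ₀T _⟩ : T) : Ω), hy⟩ := Subtype.ext e1
  show χ (Subgroup.inclusion hle' ⟨ψ (Subgroup.inclusion hPQ x), hx⟩) = ψ ⟨φ x, hφQ x⟩
  rw [e6, e3]
  exact e2.symm

/-- In a strongly invariant subsystem over `S`, the elements of `p`-power order of `Aut_F(Q)`
lie in the subsystem when `Q` is fully automized. -/
theorem pElt_mem_of_automized [Finite S] (p : ℕ) [Fact p.Prime] (F : FusionSystem S)
    (E₁ : FusionSystem S) (hsi : StrongInv E₁ F) {Q : Subgroup Ω}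
    (hQa : F.IsFullyAutomized p Q) {γ : MulAut Q} (hγ : γ ∈ F.autGroup Q) {k : ℕ}
    (hk : orderOf γ = p ^ k) : γ ∈ E₁.autGroup Q := by
  obtain ⟨hQS, R, hR⟩ := hQa
  have hQfin : Finite Q := finite_of_le hQS
  have hzp : IsPGroup p (Subgroup.zpowers (⟨γ, hγ⟩ : F.autGroup Q)) := by
    apply IsPGroup.of_card (n := k)
    rw [Nat.card_zpowers, Subgroup.orderOf_mk, hk]
  obtain ⟨δ, hδ⟩ := exists_cj_le_sylow R hzp
  have hr : δ * ⟨γ, hγ⟩ * δ⁻¹ ∈ (R : Subgroup (F.autGroup Q)) :=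
    hδ ⟨⟨γ, hγ⟩, Subgroup.mem_zpowers _, rfl⟩
  rw [hR, Subgroup.mem_subgroupOf] at hr
  obtain ⟨D, hD, rfl⟩ : ∃ D : MulAut Q, ∃ hD : D ∈ F.autGroup Q, δ = ⟨D, hD⟩ :=
    ⟨δ.1, δ.2, rfl⟩
  have hr' : D * γ * D⁻¹ ∈ autInducedBy S Q := hr
  obtain ⟨s, hsS, hs⟩ := Fusion.mem_autInducedBy_iff.1 hr'
  have hφ : conjHom Q s ∈ E₁.Hom Q := E₁.conj_mem hQS hsS
  have hψ : Q.subtype.comp (D⁻¹ : MulAut Q).toMonoidHom ∈ F.Hom Q :=
    (Fusion.mem_autGroup_iff F hQS).1 (inv_mem hD)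
  have hφQ : ∀ x : Q, conjHom Q s x ∈ Q := by
    intro x
    show s * (x : Ω) * s⁻¹ ∈ Q
    rw [← hs x]
    exact ((D * γ * D⁻¹) x).2
  obtain ⟨χ, hχ, hχv⟩ := hsi Q Q le_rfl hQS _ hφ hφQ _ hψ
  rw [Fusion.mem_autGroup_iff E₁ hQS]
  apply mem_hom_of_pointwise E₁ hχ
  intro x
  have e1 : (D⁻¹ : MulAut Q) (D x) = x := by simp
  have hx : (x : Ω) ∈ (Q.subgroupOf Q).map (Q.subtype.comp (D⁻¹ : MulAut Q).toMonoidHom) :=
    ⟨D x, Subgroup.mem_subgroupOf.mpr (D x).2, congrArg Subtype.val e1⟩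
  refine ⟨hx, ?_⟩
  have hx' : (Q.subtype.comp (D⁻¹ : MulAut Q).toMonoidHom) (Subgroup.inclusion le_rfl (D x)) ∈
      (Q.subgroupOf Q).map (Q.subtype.comp (D⁻¹ : MulAut Q).toMonoidHom) := by
    have e : (Q.subtype.comp (D⁻¹ : MulAut Q).toMonoidHom) (Subgroup.inclusion le_rfl (D x)) =
        (x : Ω) := congrArg Subtype.val e1
    rw [e]
    exact hx
  have h2 := hχv (D x) hx'
  have e3 : (⟨conjHom Q s (D x), hφQ (D x)⟩ : Q) = (D * γ * D⁻¹) (D x) :=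
    Subtype.ext (hs (D x)).symm
  have e4 : (D * γ * D⁻¹) (D x) = D (γ x) := by
    simp [MulAut.mul_apply]
  have e5 : (⟨(Q.subtype.comp (D⁻¹ : MulAut Q).toMonoidHom) (Subgroup.inclusion le_rfl (D x)),
      hx'⟩ : ↥((Q.subgroupOf Q).map (Q.subtype.comp (D⁻¹ : MulAut Q).toMonoidHom))) =
      ⟨x, hx⟩ := Subtype.ext (congrArg (fun z : Q => (z : Ω)) e1)
  rw [e5, e3, e4] at h2
  rw [h2]
  show ((γ x : Q) : Ω) = (((D⁻¹ : MulAut Q) (D (γ x)) : Q) : Ω)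
  simp

/-- In a strongly invariant subsystem over `S`, the elements of `p`-power order of `Aut_F(P)`
lie in the subsystem. -/
theorem pElt_mem_of_strongInv [Finite S] (p : ℕ) [Fact p.Prime] (F : FusionSystem S)
    (hF : F.IsSaturated p) (E₁ : FusionSystem S) (hsi : StrongInv E₁ F) {P : Subgroup Ω}
    (hPS : P ≤ S) {γ : MulAut P} (hγ : γ ∈ F.autGroup P) {k : ℕ}
    (hk : orderOf γ = p ^ k) : γ ∈ E₁.autGroup P := by
  obtain ⟨Q, ⟨φ, hφ, hr⟩, hQa, -⟩ := hF P hPS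
  subst hr
  have hinj := F.injective_of_mem hφ
  obtain ⟨ρ, hρ, hρv⟩ := F.inv_mem hφ
  obtain ⟨e, hedef⟩ : ∃ e : P ≃* φ.range, e = Fusion.equivOfRange φ hinj rfl := ⟨_, rfl⟩
  have hev : ∀ x : P, ((e x : φ.range) : Ω) = φ x := by
    intro x
    rw [hedef]
    rfl
  have he : Fusion.IsIso F e := by
    rw [hedef]
    exact Fusion.isIso_equivOfRange F hφ rfl
  have hγ'F : MulAut.congr e γ ∈ F.autGroup φ.range := Fusion.congr_mem_autGroup F he hγ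
  have hord : orderOf (MulAut.congr e γ) = p ^ k := by
    rw [MulEquiv.orderOf_eq]
    exact hk
  have hγ'E := pElt_mem_of_automized p F E₁ hsi hQa hγ'F hord
  have hQS := hQa.1
  have h1 := (Fusion.mem_autGroup_iff E₁ hQS).1 hγ'E
  obtain ⟨χ, hχ, hχv⟩ := hsi φ.range φ.range le_rfl hQS _ h1
    (fun y => (MulAut.congr e γ y).2) ρ hρ
  rw [Fusion.mem_autGroup_iff E₁ hPS]
  apply mem_hom_of_pointwise E₁ hχ
  intro x
  have hx : (x : Ω) ∈ (φ.range.subgroupOf φ.range).map ρ :=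
    ⟨⟨φ x, ⟨x, rfl⟩⟩, Subgroup.mem_subgroupOf.mpr ⟨x, rfl⟩, hρv x⟩
  refine ⟨hx, ?_⟩
  have hx' : ρ (Subgroup.inclusion le_rfl (⟨φ x, ⟨x, rfl⟩⟩ : φ.range)) ∈
      (φ.range.subgroupOf φ.range).map ρ := by
    have e0 : ρ (Subgroup.inclusion le_rfl (⟨φ x, ⟨x, rfl⟩⟩ : φ.range)) = (x : Ω) := hρv x
    rw [e0]
    exact hx
  have h2 := hχv ⟨φ x, ⟨x, rfl⟩⟩ hx'
  have e5 : (⟨ρ (Subgroup.inclusion le_rfl (⟨φ x, ⟨x, rfl⟩⟩ : φ.range)), hx'⟩ :
      ↥((φ.range.subgroupOf φ.range).map ρ)) = ⟨x, hx⟩ := Subtype.ext (hρv x)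
  have e6 : (⟨φ x, ⟨x, rfl⟩⟩ : φ.range) = e x := Subtype.ext (hev x).symm
  have e7 : MulAut.congr e γ (e x) = e (γ x) := by
    show e (γ (e.symm (e x))) = _
    rw [MulEquiv.symm_apply_apply]
  have e8 : (⟨(φ.range.subtype.comp (MulAut.congr e γ).toMonoidHom) (⟨φ x, ⟨x, rfl⟩⟩ : φ.range),
      (MulAut.congr e γ ⟨φ x, ⟨x, rfl⟩⟩).2⟩ : φ.range) = ⟨φ (γ x), ⟨γ x, rfl⟩⟩ := by
    apply Subtype.ext
    show ((MulAut.congr e γ ⟨φ x, ⟨x, rfl⟩⟩ : φ.range) : Ω) = φ (γ x)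
    rw [e6, e7, hev]
  rw [e5, e8, hρv] at h2
  exact h2.symm

/-- A subsystem over `S` containing the elements of `p`-power order of the automizers of the
centric subgroups has index prime to `p`, satisfies the Frattini property and has the same
centric subgroups. -/
theorem primeIndex_of_centric [Finite S] (p : ℕ) [Fact p.Prime] (hS : IsPGroup p S)
    (F : FusionSystem S) (hF : F.IsSaturated p) (E : FusionSystem S) (hEF : E.IsSubsystemOf F)
    (h : ∀ P : Subgroup Ω, F.IsCentric P →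
      (Subgroup.closure {α : ↥(F.autGroup P) | ∃ k : ℕ, orderOf α = p ^ k}).map
        (F.autGroup P).subtype ≤ E.autGroup P) :
    E.HasPrimeToPIndexIn F p ∧
      (∀ (P : Subgroup Ω) (φ : P →* Ω), φ ∈ F.Hom P → ∃ α ∈ F.autGroup S, ∃ φ₀ ∈ E.Hom P,
        ∀ (x : P) (hx : φ₀ x ∈ S), φ x = ((α ⟨φ₀ x, hx⟩ : S) : Ω)) ∧
      ∀ P : Subgroup Ω, E.IsCentric P ↔ F.IsCentric P := by
  have hle := le_decomp_invSys p hS F hF E h
  have hsi := strongInv_of_le_decomp F _ (stronglyClosed_top F) (autInv_invSys E F) hle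
  have hfr : ∀ (P : Subgroup Ω) (φ : P →* Ω), φ ∈ F.Hom P → ∃ α ∈ F.autGroup S,
      ∃ φ₀ ∈ E.Hom P, ∀ (x : P) (hx : φ₀ x ∈ S), φ x = ((α ⟨φ₀ x, hx⟩ : S) : Ω) := by
    intro P φ hφ
    obtain ⟨-, α, hα, φ₀, hφ₀, hdec⟩ := hle P hφ
    have hPS : P ≤ S := (F.le_of_mem hφ).1
    have hle' : P ≤ P ⊓ S := le_inf le_rfl hPS
    exact ⟨α, hα, φ₀.comp (Subgroup.inclusion hle'),
      invSys_le E _ (restrict_mem _ hφ₀ hle'),
      fun x hx => hdec (Subgroup.inclusion hle' x) hx⟩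
  refine ⟨⟨hEF, fun P hPS => ?_⟩, hfr, fun P => ⟨fun hP => ?_, fun hP => ?_⟩⟩
  · rw [Subgroup.map_le_iff_le_comap, Subgroup.closure_le]
    rintro γ ⟨k, hk⟩
    show (γ : MulAut P) ∈ E.autGroup P
    have hk' : orderOf (γ : MulAut P) = p ^ k := by
      rw [Subgroup.orderOf_coe]
      exact hk
    have h1 := pElt_mem_of_strongInv p F hF _ hsi hPS γ.2 hk'
    exact (Fusion.mem_autGroup_iff E hPS).2
      (invSys_le E _ ((Fusion.mem_autGroup_iff _ hPS).1 h1))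
  · refine ⟨hP.1, fun Q hQ => ?_⟩
    obtain ⟨φ, hφ, hr⟩ := hQ
    obtain ⟨α, hα, φ₀, hφ₀, hv⟩ := hfr P φ hφ
    have hφ₀S := (E.le_of_mem hφ₀).2
    have hC := hP.2 φ₀.range ⟨φ₀, hφ₀, rfl⟩
    intro c hc
    have hc₀ : (((α⁻¹ : MulAut S) ⟨c, hc.1⟩ : S) : Ω) ∈ centralizerIn S φ₀.range := by
      refine ⟨((α⁻¹ : MulAut S) ⟨c, hc.1⟩).2, ?_⟩
      apply Subgroup.mem_centralizer_iff.mpr
      rintro _ ⟨x, rfl⟩
      have hcomm : α ⟨φ₀ x, hφ₀S x⟩ * ⟨c, hc.1⟩ = ⟨c, hc.1⟩ * α ⟨φ₀ x, hφ₀S x⟩ := by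
        apply Subtype.ext
        show ((α ⟨φ₀ x, hφ₀S x⟩ : S) : Ω) * c = c * ((α ⟨φ₀ x, hφ₀S x⟩ : S) : Ω)
        rw [← hv x (hφ₀S x)]
        have hφQ : φ x ∈ Q := by
          rw [← hr]
          exact ⟨x, rfl⟩
        exact (Subgroup.mem_centralizer_iff.mp hc.2) _ hφQ
      have h3 : (⟨φ₀ x, hφ₀S x⟩ : S) * (α⁻¹ : MulAut S) ⟨c, hc.1⟩ =
          (α⁻¹ : MulAut S) ⟨c, hc.1⟩ * ⟨φ₀ x, hφ₀S x⟩ := by
        have h4 := congrArg (α⁻¹ : MulAut S) hcomm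
        rw [map_mul, map_mul, MulAut.inv_apply_self] at h4
        exact h4
      exact congrArg Subtype.val h3
    obtain ⟨x, hx⟩ := hC hc₀
    have e : α ⟨φ₀ x, hφ₀S x⟩ = ⟨c, hc.1⟩ := by
      have e0 : (⟨φ₀ x, hφ₀S x⟩ : S) = (α⁻¹ : MulAut S) ⟨c, hc.1⟩ := Subtype.ext hx
      rw [e0, MulAut.apply_inv_self]
    rw [← hr]
    refine ⟨x, ?_⟩
    rw [hv x (hφ₀S x), e]
  · exact ⟨hP.1, fun Q ⟨φ, hφ, hr⟩ => hP.2 Q ⟨φ, hEF P hφ, hr⟩⟩

end Cfsg.Agent.Lib.Helper27
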