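import Mathlib
import Cfsg.Prelude.Def_FusionSystem
import Cfsg.Agent.Lib.Helper27.Centric
import Cfsg.Agent.Lib.Helper27.WeakNormal
import Cfsg.Agent.Lib.Helper27.NormalSub
import Cfsg.Agent.Lib.Helper27.GroupFusion
import Cfsg.Agent.S5077
import Cfsg.Agent.S5076
import Cfsg.Agent.Lib.Helper27.SubgroupFusion

set_option autoImplicit false

namespace Cfsg.Agent.Lib.Helper27

open Cfsg Cfsg.FusionSystem Cfsg.Agent.Lib.Helper26

variable {Ω : Type*} [Group Ω] {S : Subgroup Ω}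

theorem exists_hom_of_eq {T : Subgroup Ω} (E : FusionSystem T) {P P' : Subgroup Ω} (h : P = P')
    {χ : P →* Ω} (hχ : χ ∈ E.Hom P) :
    ∃ χ' ∈ E.Hom P', ∀ (y : Ω) (hy : y ∈ P) (hy' : y ∈ P'), χ' ⟨y, hy'⟩ = χ ⟨y, hy⟩ := by
  subst h
  exact ⟨χ, hχ, fun _ _ _ => rfl⟩

/-- In an invariant subsystem `E` of `F`, the group `Aut_E(R)` is normalized by `Aut_F(R)`. -/
theorem autGroup_conj_mem_of_invariant {T : Subgroup Ω} {E : FusionSystem T}
    {F : FusionSystem S} (hE : E.IsInvariantIn F) {R : Subgroup Ω} (hRT : R ≤ T)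
    {β γ : MulAut R} (hβ : β ∈ F.autGroup R) (hγ : γ ∈ E.autGroup R) :
    β * γ * β⁻¹ ∈ E.autGroup R := by
  have hTS : T ≤ S := hE.2.1.1
  have hRS : R ≤ S := hRT.trans hTS
  have hβ' : R.subtype.comp (β : R ≃* R).toMonoidHom ∈ F.Hom R :=
    (Fusion.mem_autGroup_iff F hRS).1 hβ
  obtain ⟨α, hα, β₀, hβ₀, hfr⟩ := hE.2.2.2 R hRT _ hβ'
  have hβ₀T : ∀ x, β₀ x ∈ T := (E.le_of_mem hβ₀).2
  have hfr' : ∀ x : R, ((β x : R) : Ω) = ((α ⟨β₀ x, hβ₀T x⟩ : T) : Ω) := fun x => hfr x (hβ₀T x)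
  obtain ⟨ψ, hψ, hψinv⟩ := E.inv_mem hβ₀
  have hγ' : R.subtype.comp (γ : R ≃* R).toMonoidHom ∈ E.Hom R :=
    (Fusion.mem_autGroup_iff E hRT).1 hγ
  have hval1 : ∀ y : β₀.range, ψ y ∈ R := by
    rintro ⟨_, x, rfl⟩
    rw [hψinv]
    exact x.2
  have h1 := E.comp_mem hψ hγ' hval1
  have hval2 : ∀ y : β₀.range,
      ((R.subtype.comp (γ : R ≃* R).toMonoidHom).comp (ψ.codRestrict R hval1)) y ∈ R :=
    fun y => Subtype.coe_prop _
  have h2 := E.comp_mem h1 hβ₀ hval2
  have hR'T : β₀.range ≤ T := by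
    rintro _ ⟨x, rfl⟩
    exact hβ₀T x
  obtain ⟨χ, hχ, hχv⟩ := invariant_apply hE hR'T h2 hα
  have hmap : (β₀.range.subgroupOf T).map (T.subtype.comp α.toMonoidHom) = R := by
    ext y
    constructor
    · rintro ⟨t, ht, rfl⟩
      obtain ⟨x, hx⟩ := Subgroup.mem_subgroupOf.1 ht
      have e : t = ⟨β₀ x, hβ₀T x⟩ := Subtype.ext hx.symm
      show ((α t : T) : Ω) ∈ R
      rw [e, ← hfr']
      exact (β x).2
    · intro hy
      refine ⟨⟨β₀ (β⁻¹ ⟨y, hy⟩), hβ₀T _⟩, Subgroup.mem_subgroupOf.2 ⟨_, rfl⟩, ?_⟩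
      show ((α ⟨β₀ (β⁻¹ ⟨y, hy⟩), hβ₀T _⟩ : T) : Ω) = y
      rw [← hfr', MulAut.apply_inv_self]
  obtain ⟨χ', hχ', hχ'v⟩ := exists_hom_of_eq E hmap hχ
  rw [Fusion.mem_autGroup_iff E hRT]
  have hfin : R.subtype.comp ((β * γ * β⁻¹ : MulAut R) : R ≃* R).toMonoidHom = χ' := by
    ext y
    show (((β (γ (β⁻¹ y)) : R)) : Ω) = χ' y
    have hyR : ((y : R) : Ω) ∈ (β₀.range.subgroupOf T).map (T.subtype.comp α.toMonoidHom) := by
      rw [hmap]
      exact y.2
    have e1 : χ' y = χ ⟨y, hyR⟩ := hχ'v y hyR y.2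
    rw [e1]
    have h3 := hχv ⟨β₀ (β⁻¹ y), hβ₀T _⟩ ⟨y, hRT y.2⟩ ⟨_, rfl⟩ hyR
      ⟨β₀ (γ (β⁻¹ y)), hβ₀T _⟩ (by
        apply Subtype.ext
        rw [← hfr', MulAut.apply_inv_self]) (by
        show β₀ (γ (β⁻¹ y)) = β₀ (γ ((ψ.codRestrict R hval1) ⟨β₀ (β⁻¹ y), ⟨_, rfl⟩⟩))
        congr 2
        apply Subtype.ext
        exact (hψinv (β⁻¹ y)).symm)
    rw [h3, ← hfr']
  unfold Fusion.IsIso
  rw [hfin]
  exact hχ'

/-- In an invariant subsystem `E` over `S` of the saturated system `F`, `Aut_E(R)` contains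
every element of `p`-power order of `Aut_F(R)` for fully normalized `R`. -/
theorem pElement_mem_autGroup_of_invariant [Finite S] (p : ℕ) [Fact p.Prime] (hS : IsPGroup p S)
    (F E : FusionSystem S) (hF : F.IsSaturated p) (hE : E.IsInvariantIn F) {R : Subgroup Ω}
    (hRn : F.IsFullyNormalized R) {δ : MulAut R} (hδ : δ ∈ F.autGroup R) {k : ℕ}
    (hk : δ ^ p ^ k = 1) : δ ∈ E.autGroup R := by
  have hRS : R ≤ S := hRn.1
  have hRfin : Finite R := finite_of_le hRS
  have h77 := (Cfsg.Agent.S5077.result p hS F).1 hF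
  obtain ⟨-, hRa⟩ := h77.1 R hRn
  have hTA : autInducedBy S R ≤ F.autGroup R := Fusion.autInducedBy_le_autGroup F hRS
  have hT : Nat.card (autInducedBy S R) = p ^ (Nat.card (F.autGroup R)).factorization p :=
    (sylow_subgroupOf_iff hTA).1 hRa.2
  have hp : IsPGroup p (Subgroup.zpowers δ) := by
    rintro ⟨x, hx⟩
    obtain ⟨j, rfl⟩ := Subgroup.mem_zpowers_iff.1 hx
    refine ⟨k, Subtype.ext ?_⟩
    show (δ ^ j) ^ p ^ k = 1
    rw [← zpow_natCast, ← zpow_mul, mul_comm, zpow_mul, zpow_natCast, hk, one_zpow]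
  obtain ⟨n, hn, hle⟩ := exists_cj_le_of_card hTA hT ((Subgroup.zpowers_le).2 hδ) hp
  have h1 : n * δ * n⁻¹ ∈ E.autGroup R :=
    Fusion.autInducedBy_le_autGroup E hRS (hle (conj_mem_cj (Subgroup.mem_zpowers δ)))
  have h2 := autGroup_conj_mem_of_invariant hE hRS (Subgroup.inv_mem _ hn) h1
  have e : n⁻¹ * (n * δ * n⁻¹) * n⁻¹⁻¹ = δ := by group
  rw [e] at h2
  exact h2

/-- A criterion for the fusion system of a finite group to be simple. -/
theorem groupFS_isSimple_of_generated {G : Type*} [Group G] [Finite G] (p : ℕ) [Fact p.Prime]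
    (S : Sylow p G) (hS1 : (S : Subgroup G) ≠ ⊥)
    (ha : ∀ T : Subgroup G, (groupFusionSystem (S : Subgroup G)).StronglyClosed T →
      T = ⊥ ∨ T = (S : Subgroup G))
    (hb : autInducedBy ⊤ (S : Subgroup G) = ⨆ (R : Subgroup G)
      (_ : (groupFusionSystem (S : Subgroup G)).IsFullyNormalized R ∧
        (groupFusionSystem (S : Subgroup G)).IsRadical p R ∧
        (groupFusionSystem (S : Subgroup G)).IsCentric R),
      autInducedBy (Subgroup.closure {g : G | g ∈ Subgroup.normalizer (R : Set G) ∧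
        ∃ k : ℕ, orderOf g = p ^ k}) (S : Subgroup G)) :
    (groupFusionSystem (S : Subgroup G)).IsSimple p := by
  have hF : (groupFusionSystem (S : Subgroup G)).IsSaturated p := groupFS_saturated S
  have hS : IsPGroup p (S : Subgroup G) := S.2
  refine ⟨hF, hS1, fun T E hE => ?_⟩
  obtain ⟨⟨hEsat, -, hEinv⟩, -⟩ := hE
  rcases ha T hEinv.2.1 with hT | hT
  · exact Or.inl hT
  · right
    subst hT
    refine ⟨rfl, ?_⟩
    have hle : E ≤ groupFusionSystem (S : Subgroup G) := hEinv.1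
    have haut : (groupFusionSystem (S : Subgroup G)).autGroup (S : Subgroup G) ≤
        E.autGroup (S : Subgroup G) := by
      rw [groupFS_autGroup le_rfl, hb]
      apply iSup₂_le
      rintro R ⟨hRn, -, hRc⟩
      refine (Subgroup.closure_le _).2 ?_
      rintro α ⟨g, hg, hα⟩
      have hRS : R ≤ (S : Subgroup G) := hRn.1
      have hM : Subgroup.closure {g : G | g ∈ Subgroup.normalizer (R : Set G) ∧
          ∃ k : ℕ, orderOf g = p ^ k} ≤
          ((E.autGroup R).comap R.normalizerMonoidHom).map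
            (Subgroup.normalizer (R : Set G)).subtype := by
        refine (Subgroup.closure_le _).2 ?_
        rintro h ⟨hhN, k, hk⟩
        refine ⟨⟨h, hhN⟩, ?_, rfl⟩
        show R.normalizerMonoidHom ⟨h, hhN⟩ ∈ E.autGroup R
        have hδF : R.normalizerMonoidHom ⟨h, hhN⟩ ∈
            (groupFusionSystem (S : Subgroup G)).autGroup R := by
          rw [groupFS_autGroup hRS]
          exact Subgroup.subset_closure ⟨h, Subgroup.mem_top _, fun x => rfl⟩
        have hpow : (R.normalizerMonoidHom ⟨h, hhN⟩) ^ p ^ k = 1 := by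
          rw [← map_pow]
          have : (⟨h, hhN⟩ : Subgroup.normalizer (R : Set G)) ^ p ^ k = 1 := by
            apply Subtype.ext
            show h ^ p ^ k = 1
            rw [← hk]
            exact pow_orderOf_eq_one h
          rw [this, map_one]
        exact pElement_mem_autGroup_of_invariant p hS _ E hF hEinv hRn hδF hpow
      obtain ⟨⟨g', hg'N⟩, hg'E, hg'g⟩ := hM hg
      have hg'g' : g' = g := hg'g
      subst hg'g'
      have hg'E' : R.normalizerMonoidHom ⟨g', hg'N⟩ ∈ E.autGroup R := hg'E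
      have hcE : R.subtype.comp
          (R.normalizerMonoidHom ⟨g', hg'N⟩ : R ≃* R).toMonoidHom ∈ E.Hom R :=
        (Fusion.mem_autGroup_iff E hRS).1 hg'E'
      have hψ : (S : Subgroup G).subtype.comp
          (α : ↥(S : Subgroup G) ≃* ↥(S : Subgroup G)).toMonoidHom ∈
          (groupFusionSystem (S : Subgroup G)).Hom (S : Subgroup G) :=
        ⟨le_rfl, fun x => (α x).2, g', hα⟩
      have hres : ((S : Subgroup G).subtype.comp
          (α : ↥(S : Subgroup G) ≃* ↥(S : Subgroup G)).toMonoidHom).comp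
          (Subgroup.inclusion hRS) ∈ E.Hom R := by
        have : ((S : Subgroup G).subtype.comp
            (α : ↥(S : Subgroup G) ≃* ↥(S : Subgroup G)).toMonoidHom).comp
            (Subgroup.inclusion hRS) =
            R.subtype.comp (R.normalizerMonoidHom ⟨g', hg'N⟩ : R ≃* R).toMonoidHom := by
          ext x
          exact hα _
        rw [this]
        exact hcE
      have := mem_of_restrict_centric p hS _ E hF hEsat hle hψ hRS hRc hres
      exact (Fusion.mem_autGroup_iff E le_rfl).2 this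
    intro P
    apply Set.Subset.antisymm (hle P)
    intro φ hφ
    have hPS : P ≤ (S : Subgroup G) := hφ.1
    obtain ⟨α, hα, φ₀, hφ₀, hfr⟩ := hEinv.2.2.2 P hPS φ hφ
    have hαE := (Fusion.mem_autGroup_iff E le_rfl).1 (haut hα)
    have hφ₀S : ∀ x, φ₀ x ∈ (S : Subgroup G) := (E.le_of_mem hφ₀).2
    have h1 := E.comp_mem hφ₀ hαE hφ₀S
    have : ((S : Subgroup G).subtype.comp
        (α : ↥(S : Subgroup G) ≃* ↥(S : Subgroup G)).toMonoidHom).comp
        (φ₀.codRestrict _ hφ₀S) = φ := by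
      ext x
      exact (hfr x (hφ₀S x)).symm
    rw [← this]
    exact h1

end Cfsg.Agent.Lib.Helper27
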